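import Cfsg.Agent.H725.BD.OwnArith
import Cfsg.Agent.H477.HC.FactsB
import Cfsg.Agent.H397.Rk.Chars
import Cfsg.Agent.H934.OutCl
import Cfsg.Agent.H133.PB.LieCross
import Cfsg.Agent.H589.BD.Kill

/-!
# S4932/S4953: the orthogonal groups in their own characteristic (helper725)

A rank 3 character and a Harish-Chandra induced character (`kill_common`).
-/

set_option autoImplicit false

open Cfsg

namespace Cfsg.Agent.H725.BD

open Cfsg.Agent.H589.BD Cfsg.Agent.H397.Rk Cfsg.Agent.H477.HC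

universe u

/-- two characters -/
def Two (p : ℕ) (S : Type*) [Group S] : Prop :=
  ∃ A e g : ℕ, H397.Rk.HasDeg S A ∧ H397.Rk.HasDeg S e ∧ g ∣ A ∧ g ∣ e ∧ Nat.card (Out S) < g ∧
    Nat.card (Out S) * A < e ∧ g.Coprime p

theorem Two.congr {p : ℕ} {S : Type*} {S' : Type*} [Group S] [Group S'] (e : S ≃* S') (h : Two p S') : Two p S := by
  obtain ⟨A, d, g, h1, h2, h3, h4, h5, h6, h7⟩ := h
  have ho : Nat.card (Out S) = Nat.card (Out S') := H934.OutB.card_out_congr e
  exact ⟨A, d, g, h1.of_equiv e, h2.of_equiv e, h3, h4, ho ▸ h5, ho ▸ h6, h7⟩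

/-- **the criterion** -/
theorem Two.kill {p : ℕ} [hp : Fact p.Prime] {S : Type u} [Group S] [Finite S] [IsSimpleGroup S]
    (hna : ¬ IsMulCommutative S) (hS : SizeOK S) (hL : IsLieTypeChar p S) (h : Two p S) : Kill p S := by
  obtain ⟨A, e, g, ⟨α, hα⟩, ⟨β, hβ⟩, h3, h4, h5, h6, h7⟩ := h
  have hfin : Finite (MulAut S) := Finite.of_injective (fun f : MulAut S => (f : S → S)) DFunLike.coe_injective
  have hfo : Finite (Out S) := Quotient.finite _
  have ho : 0 < Nat.card (Out S) := Nat.card_pos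
  have hdvd : p ∣ Nat.card S := H330.Gow.dvd_card (H330.Gow.hasSplit_of_ab (H716.SplitAb.hasSplitAb_of_lie hp.out hL))
  -- a prime divisor of `g`
  obtain ⟨t, ht, htg⟩ := Nat.exists_prime_and_dvd (show g ≠ 1 by omega)
  have htp : t ≠ p := by
    rintro rfl
    have h8 := Nat.Coprime.eq_one_of_dvd h7.symm htg
    exact ht.one_lt.ne' h8
  have hB : ∀ χ : IrrCharacter S, g ∣ charDegree (χ : S → ℂ) → InB0 p χ := fun χ hχ M hM =>
    H133.PB.mem_principal_of_lie hp.out ht htp hL χ (htg.trans hχ) hM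
  have hN : ∀ χ : IrrCharacter S, g ∣ charDegree (χ : S → ℂ) → NT χ := by
    intro χ hχ
    by_contra hcon
    unfold NT at hcon
    push Not at hcon
    have h8 : charDegree (χ : S → ℂ) = 1 := H670.PSing.charDegree_eq_of (by rw [hcon 1]; simp)
    rw [h8, Nat.dvd_one] at hχ
    omega
  rw [← hα] at h3 h6
  rw [← hβ] at h4 h6
  refine kill_common hna hS hdvd α β (hB α h3) (hB β h4) (hN α h3) (hN β h4) h5 h3 h4 ?_
  rintro ⟨d, d', h8, h9, h10⟩
  have h11 := Nat.le_of_dvd ho h8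
  have h12 := Nat.pos_of_dvd_of_pos h9 ho
  have h13 : charDegree (β : S → ℂ) ≤ charDegree (β : S → ℂ) * d' := Nat.le_mul_of_pos_right _ h12
  have h14 : charDegree (α : S → ℂ) * d ≤ Nat.card (Out S) * charDegree (α : S → ℂ) := by
    rw [mul_comm]
    exact Nat.mul_le_mul_right _ h11
  omega

section fam

variable {F : Type} [Field F] [Fintype F]

theorem f_le {p f : ℕ} (hp : p.Prime) : f ≤ p ^ f - 1 := by
  have := Nat.lt_pow_self (n := f) hp.one_lt
  omega

theorem charP_of_card {p f : ℕ} (hp : p.Prime) (hF : Fintype.card F = p ^ f) : CharP F p := by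
  obtain ⟨r, hr⟩ := CharP.exists F
  obtain ⟨n, hrp, hn⟩ := FiniteField.card F r
  have h1 : r ∣ p ^ f := by
    rw [← hF, hn]
    exact dvd_pow_self r n.ne_zero
  have h2 : r = p := (Nat.prime_dvd_prime_iff_eq hrp hp).1 (hrp.dvd_of_dvd_pow h1)
  exact h2 ▸ hr

theorem Ch.hasDeg {S : Type*} [Group S] {d : ℕ} (h : H477.HC.Ch S d) : H397.Rk.HasDeg S d := h.exists_irr

theorem Ch.pos {S : Type*} [Group S] [Finite S] {d : ℕ} (h : H477.HC.Ch S d) : 0 < d := by
  obtain ⟨χ, hχ⟩ := h.exists_irr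
  rw [← hχ]
  exact H686.CharKit.charDegree_pos χ

/-- plus type -/
theorem two_plus {p f m : ℕ} [hp : Fact p.Prime] (hf : 1 ≤ f) (hF : Fintype.card F = p ^ f) (hm : 4 ≤ m)
    (hs : IsSimpleGroup (POmega F (quadFormPlus m F))) (hna : ¬ IsMulCommutative (POmega F (quadFormPlus m F))) :
    Two p (POmega F (quadFormPlus m F)) := by
  have hch : CharP F p := charP_of_card hp.out hF
  have : Finite (isometryGroup F (quadFormPlus m F)) := inferInstance
  have : Finite (POmega F (quadFormPlus m F)) := inferInstance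
  have hcard : Nat.card F = p ^ f := by rw [Nat.card_eq_fintype_card, hF]
  obtain ⟨q, hq⟩ : ∃ q, q = p ^ f := ⟨_, rfl⟩
  rw [← hq] at hF hcard
  have hq2 : 2 ≤ q := hF ▸ Fintype.one_lt_card
  have hpq : p ∣ q := hq ▸ dvd_pow_self p (by omega)
  -- the order of the outer automorphism group
  have ho := H934.OutB.card_out_of_aut hna (Cfsg.Agent.S0817.result (F := F) p f hf (hF.trans hq) m hm)
  obtain ⟨o, hod⟩ : ∃ o, o = Nat.card (Out (POmega F (quadFormPlus m F))) := ⟨_, rfl⟩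
  rw [← hod, ← hq] at ho
  have hfq : f ≤ q - 1 := hq ▸ f_le hp.out
  have ho24 : o ≤ 24 * (q - 1) := by
    rw [ho]
    apply Nat.mul_le_mul _ hfq
    split_ifs <;> norm_num
  have hop : p = 2 → o ≤ 6 * (q - 1) := by
    intro h
    rw [ho, if_pos h]
    apply Nat.mul_le_mul _ hfq
    split_ifs <;> norm_num
  -- the rank 3 character
  obtain ⟨A, B, -, hB, -, hBd⟩ := chars_plus (F := F) hF hm
  have hB' : B * (q ^ 2 - 1) = q ^ 2 * (q ^ (2 * (m - 1)) - 1) := by
    have h1 : 1 ≤ q ^ 2 := Nat.one_le_pow _ _ (by omega)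
    have h2 : 1 ≤ q ^ (2 * (m - 1)) := Nat.one_le_pow _ _ (by omega)
    zify [h1, h2]
    exact hB
  obtain ⟨G, hBG, hG⟩ := exists_quot hB' (coprime_sq (by omega) 2) (by omega)
  -- the Harish-Chandra induced character
  obtain ⟨e, he, h1, h3⟩ := plus_ch F (p := p) (m := m) (k := m) (n := 0) (Nat.add_zero m) hm (by omega)
  obtain ⟨y, hy⟩ := plus_dvd_top F (p := p) (m := m) (by omega)
  rw [hcard] at hy
  have hXe := dvd_eight hp.out (coprime_prod hp.out hpq (by omega) _) hy h1 h3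
  -- the product
  have hprod : G * ((q ^ 2 - 1) * ((q ^ 2 - 1) * (q ^ 4 - 1))) ∣
      ∏ i ∈ Finset.range (m - 1), (q ^ (2 * (i + 1)) - 1) := by
    obtain ⟨r, rfl⟩ : ∃ r, m = r + 4 := ⟨m - 4, by omega⟩
    have e1 : r + 4 - 1 = (r + 2) + 1 := by omega
    rw [e1, Finset.prod_range_succ]
    have h5 : (q ^ 2 - 1) * (q ^ 4 - 1) ∣ ∏ i ∈ Finset.range (r + 2), (q ^ (2 * (i + 1)) - 1) := by
      have h6 : ∏ i ∈ Finset.range 2, (q ^ (2 * (i + 1)) - 1) = (q ^ 2 - 1) * (q ^ 4 - 1) := by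
        rw [Finset.prod_range_succ, Finset.prod_range_one]
      rw [← h6]
      exact Finset.prod_dvd_prod_of_subset _ _ _ (Finset.range_mono (by omega))
    have h6 : q ^ (2 * (r + 2 + 1)) - 1 = G * (q ^ 2 - 1) := by
      rw [hG]
      rfl
    rw [h6, show G * ((q ^ 2 - 1) * ((q ^ 2 - 1) * (q ^ 4 - 1))) = ((q ^ 2 - 1) * (q ^ 4 - 1)) * (G * (q ^ 2 - 1)) by ring]
    exact Nat.mul_dvd_mul_right h5 _
  have hG0 : 0 < G := by
    rcases Nat.eq_zero_or_pos G with h | h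
    · rw [h, zero_mul] at hG
      have : 1 < q ^ (2 * (m - 1)) := Nat.one_lt_pow (by omega) (by omega)
      omega
    · exact h
  have hoG : o < G := plus_lt hq2 hm hG ho24 (fun h => by
    have hp2 : p = 2 := by
      have : p ∣ 2 := h ▸ hpq
      exact (Nat.prime_dvd_prime_iff_eq hp.out Nat.prime_two).1 this
    have := hop hp2
    omega)
  have hlt : (if p = 2 then 1 else 8) * (o * q ^ 2) < (q ^ 2 - 1) * ((q ^ 2 - 1) * (q ^ 4 - 1)) := by
    apply plus_size hq2
    split_ifs with h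
    · exact Or.inr ⟨rfl, hop h⟩
    · refine Or.inl ⟨rfl, ?_, ho24⟩
      by_contra hcon
      have : q = 2 := by omega
      rw [this] at hpq
      exact h ((Nat.prime_dvd_prime_iff_eq hp.out Nat.prime_two).1 hpq)
  have ht8 : (if p = 2 then 1 else 8) ∣ (q ^ 2 - 1) * ((q ^ 2 - 1) * (q ^ 4 - 1)) := by
    split_ifs with h
    · exact one_dvd _
    · refine Dvd.dvd.mul_right (eight_dvd ?_) _
      rw [hq]
      exact (hp.out.odd_of_ne_two h).pow
  obtain ⟨h5, h6⟩ := fin hXe hprod ht8 hlt (Ch.pos he) hG0 (by split_ifs <;> norm_num)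
  refine ⟨B, e, G, hBd, Ch.hasDeg he, ⟨q ^ 2, by rw [hBG, mul_comm]⟩, h5, by rw [← hod]; exact hoG,
    by rw [← hod, hBG]; exact h6, ?_⟩
  have h7 : (q ^ (2 * (m - 1)) - 1).Coprime p := coprime_pow_sub_one hp.out hpq (by omega) (by omega)
  exact Nat.Coprime.coprime_dvd_left (Dvd.intro _ hG) h7

/-- minus type -/
theorem two_minus {p f m : ℕ} [hp : Fact p.Prime] (hf : 1 ≤ f) (hF : Fintype.card F = p ^ f) (hm : 4 ≤ m) (a b : F)
    (hab : ∀ z₁ z₂ : F, z₁ ^ 2 + a * z₁ * z₂ + b * z₂ ^ 2 = 0 → z₁ = 0 ∧ z₂ = 0)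
    (hs : IsSimpleGroup (POmega F (quadFormMinus (m - 1) F a b)))
    (hna : ¬ IsMulCommutative (POmega F (quadFormMinus (m - 1) F a b))) :
    Two p (POmega F (quadFormMinus (m - 1) F a b)) := by
  have hch : CharP F p := charP_of_card hp.out hF
  have : Finite (isometryGroup F (quadFormMinus (m - 1) F a b)) := inferInstance
  have : Finite (POmega F (quadFormMinus (m - 1) F a b)) := inferInstance
  have hcard : Nat.card F = p ^ f := by rw [Nat.card_eq_fintype_card, hF]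
  obtain ⟨q, hq⟩ : ∃ q, q = p ^ f := ⟨_, rfl⟩
  rw [← hq] at hF hcard
  have hq2 : 2 ≤ q := hF ▸ Fintype.one_lt_card
  have hpq : p ∣ q := hq ▸ dvd_pow_self p (by omega)
  -- the order of the outer automorphism group
  have ho := H934.OutB.card_out_of_aut hna (Cfsg.Agent.S0818.result (F := F) p f hf (hF.trans hq) m hm a b hab)
  obtain ⟨o, hod⟩ : ∃ o, o = Nat.card (Out (POmega F (quadFormMinus (m - 1) F a b))) := ⟨_, rfl⟩
  rw [← hod, ← hq] at ho
  have hfq : f ≤ q - 1 := hq ▸ f_le hp.out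
  have ho8 : o ≤ 8 * (q - 1) := by
    rw [ho]
    apply Nat.mul_le_mul _ hfq
    split_ifs <;> norm_num
  have hop : p = 2 → o ≤ 2 * (q - 1) := by
    intro h
    rw [ho, if_pos h]
    exact Nat.mul_le_mul_left _ hfq
  -- the rank 3 character
  obtain ⟨A, B, hA, -, hAd, -⟩ := chars_minus (F := F) hF hm a b hab
  have hA' : A * (q ^ 2 - 1) = q ^ 1 * ((q ^ m + 1) * (q ^ (m - 2) - 1)) := by
    have h1 : 1 ≤ q ^ 2 := Nat.one_le_pow _ _ (by omega)
    have h2 : 1 ≤ q ^ (m - 2) := Nat.one_le_pow _ _ (by omega)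
    rw [pow_one]
    zify [h1, h2]
    exact hA
  obtain ⟨G, hAG, hG⟩ := exists_quot hA' (coprime_sq (by omega) 1) (by omega)
  -- the Harish-Chandra induced character
  obtain ⟨l, rfl⟩ : ∃ l, m = l + 1 := ⟨m - 1, by omega⟩
  rw [Nat.add_sub_cancel] at hAd hod hs hna ⊢
  have hl : 3 ≤ l := by omega
  obtain ⟨e, he, h1, h3⟩ := minus_ch F (p := p) a b hab (l := l) (k := l) (n := 0) (Nat.add_zero l) hl (by omega)
    (by omega) (by omega)
  obtain ⟨y, hy⟩ := minus_dvd_top F (p := p) a b hab (l := l) (by omega)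
  rw [hcard] at hy
  have hXc : ((q ^ (l + 1) + 1) * (q - 1) * (q ^ l + 1) *
      ∏ i ∈ Finset.Ico 1 (l - 1), (q ^ (2 * (i + 1)) - 1)).Coprime p := by
    refine Nat.Coprime.mul_left (Nat.Coprime.mul_left (Nat.Coprime.mul_left ?_ ?_) ?_) ?_
    · exact coprime_pow_add_one hp.out hpq (by omega)
    · have := coprime_pow_sub_one (q := q) (a := 1) hp.out hpq (by omega) (by omega)
      rwa [pow_one] at this
    · exact coprime_pow_add_one hp.out hpq (by omega)
    · exact coprime_prod hp.out hpq (by omega) _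
  have hXe := dvd_eight hp.out hXc hy h1 h3
  -- the product
  have hprod : G * ((q ^ 2 - 1) * ((q - 1) * ((q ^ l + 1) * (q ^ (l - 1) + 1)))) ∣
      (q ^ (l + 1) + 1) * (q - 1) * (q ^ l + 1) * ∏ i ∈ Finset.Ico 1 (l - 1), (q ^ (2 * (i + 1)) - 1) := by
    have h5 : (q ^ (l - 1) - 1) * (q ^ (l - 1) + 1) ∣ ∏ i ∈ Finset.Ico 1 (l - 1), (q ^ (2 * (i + 1)) - 1) := by
      have h6 : (q ^ (l - 1) - 1) * (q ^ (l - 1) + 1) = q ^ (2 * (l - 2 + 1)) - 1 := by
        rw [show l - 2 + 1 = l - 1 by omega, sq_sub]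
      rw [h6]
      exact Finset.dvd_prod_of_mem (fun i => q ^ (2 * (i + 1)) - 1) (Finset.mem_Ico.2 ⟨by omega, by omega⟩)
    have h6 : G * ((q ^ 2 - 1) * ((q - 1) * ((q ^ l + 1) * (q ^ (l - 1) + 1)))) =
        (q ^ (l + 1) + 1) * (q - 1) * (q ^ l + 1) * ((q ^ (l - 1) - 1) * (q ^ (l - 1) + 1)) := by
      have h7 : G * (q ^ 2 - 1) = (q ^ (l + 1) + 1) * (q ^ (l - 1) - 1) := hG
      calc G * ((q ^ 2 - 1) * ((q - 1) * ((q ^ l + 1) * (q ^ (l - 1) + 1))))
          = (G * (q ^ 2 - 1)) * ((q - 1) * ((q ^ l + 1) * (q ^ (l - 1) + 1))) := by ring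
        _ = _ := by rw [h7]; ring
    rw [h6]
    exact Nat.mul_dvd_mul_left _ h5
  have hG0 : 0 < G := by
    rcases Nat.eq_zero_or_pos G with h | h
    · rw [h, zero_mul] at hG
      have : 1 < q ^ (l + 1 - 2) := Nat.one_lt_pow (by omega) (by omega)
      have h8 : 0 < (q ^ (l + 1) + 1) * (q ^ (l + 1 - 2) - 1) := Nat.mul_pos (by omega) (by omega)
      omega
    · exact h
  have hoG : o < G := minus_lt hq2 hm hG ho8
  have hlt : (if p = 2 then 1 else 8) * (o * q) < (q ^ 2 - 1) * ((q - 1) * ((q ^ l + 1) * (q ^ (l - 1) + 1))) := by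
    apply minus_size hq2 hl
    split_ifs with h
    · exact Or.inr ⟨rfl, hop h⟩
    · refine Or.inl ⟨rfl, ?_, ho8⟩
      by_contra hcon
      have : q = 2 := by omega
      rw [this] at hpq
      exact h ((Nat.prime_dvd_prime_iff_eq hp.out Nat.prime_two).1 hpq)
  have ht8 : (if p = 2 then 1 else 8) ∣ (q ^ 2 - 1) * ((q - 1) * ((q ^ l + 1) * (q ^ (l - 1) + 1))) := by
    split_ifs with h
    · exact one_dvd _
    · refine Dvd.dvd.mul_right (eight_dvd ?_) _
      rw [hq]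
      exact (hp.out.odd_of_ne_two h).pow
  obtain ⟨h5, h6⟩ := fin hXe hprod ht8 hlt (Ch.pos he) hG0 (by split_ifs <;> norm_num)
  refine ⟨A, e, G, hAd, Ch.hasDeg he, ⟨q, by rw [hAG, pow_one, mul_comm]⟩, h5, by rw [← hod]; exact hoG,
    by rw [← hod, hAG, pow_one]; exact h6, ?_⟩
  have h7 : ((q ^ (l + 1) + 1) * (q ^ (l + 1 - 2) - 1)).Coprime p :=
    Nat.Coprime.mul_left (coprime_pow_add_one hp.out hpq (by omega)) (coprime_pow_sub_one hp.out hpq (by omega) (by omega))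
  exact Nat.Coprime.coprime_dvd_left (Dvd.intro _ hG) h7

/-- odd dimension -/
theorem two_odd {p f m : ℕ} [hp : Fact p.Prime] (hf : 1 ≤ f) (hF : Fintype.card F = p ^ f)
    (hodd : Odd (Fintype.card F)) (hm : 3 ≤ m)
    (hs : IsSimpleGroup (POmega F (quadFormOdd m F))) (hna : ¬ IsMulCommutative (POmega F (quadFormOdd m F))) :
    Two p (POmega F (quadFormOdd m F)) := by
  have hch : CharP F p := charP_of_card hp.out hF
  have : Finite (isometryGroup F (quadFormOdd m F)) := inferInstance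
  have : Finite (POmega F (quadFormOdd m F)) := inferInstance
  have hcard : Nat.card F = p ^ f := by rw [Nat.card_eq_fintype_card, hF]
  obtain ⟨q, hq⟩ : ∃ q, q = p ^ f := ⟨_, rfl⟩
  rw [← hq] at hF hcard
  have hpo : Odd p := by
    rw [hF, hq] at hodd
    exact Nat.Odd.of_mul_left (n := p ^ (f - 1)) (by rwa [← pow_succ', Nat.sub_add_cancel hf])
  have hqo : Odd q := hq ▸ hpo.pow
  have hq2 : 2 ≤ q := hF ▸ Fintype.one_lt_card
  have hq3 : 3 ≤ q := by
    obtain ⟨j, hj⟩ := hqo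
    omega
  have hp2 : p ≠ 2 := by
    rintro rfl
    exact absurd hpo (by decide)
  have hpq : p ∣ q := hq ▸ dvd_pow_self p (by omega)
  -- the order of the outer automorphism group
  have ho := H934.OutB.card_out_of_aut hna (Cfsg.Agent.S0816.result (F := F) p f hf (hF.trans hq) hpo m hm)
  obtain ⟨o, hod⟩ : ∃ o, o = Nat.card (Out (POmega F (quadFormOdd m F))) := ⟨_, rfl⟩
  rw [← hod] at ho
  have hfq : f ≤ q - 1 := hq ▸ f_le hp.out
  have ho2 : o ≤ 2 * (q - 1) := by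
    rw [ho]
    exact Nat.mul_le_mul_left _ hfq
  -- the rank 3 character
  obtain ⟨A, B, hA, -, hAd, -⟩ := chars_odd (F := F) hF hqo hm
  have hA' : A * (2 * (q - 1)) = q ^ 1 * ((q ^ m + 1) * (q ^ (m - 1) - 1)) := by
    have h1 : 1 ≤ q := by omega
    have h2 : 1 ≤ q ^ (m - 1) := Nat.one_le_pow _ _ (by omega)
    rw [pow_one]
    zify [h1, h2]
    exact hA
  have hcop : (q ^ 1).Coprime (2 * (q - 1)) := by
    rw [pow_one]
    refine Nat.Coprime.mul_right ?_ ?_
    · exact hqo.coprime_two_right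
    · exact (Nat.coprime_self_sub_right (by omega)).2 (Nat.coprime_one_right q)
  obtain ⟨G, hAG, hG⟩ := exists_quot hA' hcop (by omega)
  -- the Harish-Chandra induced character
  have h2F := two_ne_zero_of_odd (K := F) (p := p) (by rw [hcard]; exact hqo)
  obtain ⟨e, he, h1, h3⟩ := odd_ch F (p := p) (m := m) (k := m) (n := 0) (Nat.add_zero m) (by rw [hcard]; exact hqo)
    h2F hm (by omega)
  obtain ⟨y, hy⟩ := odd_dvd_top F h2F (by rw [hcard]; exact hqo) (p := p) (m := m) (by omega)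
  rw [hcard] at hy
  have hXc : ((q ^ m + 1) * ∏ i ∈ Finset.range (m - 1), (q ^ (2 * (i + 1)) - 1)).Coprime p :=
    Nat.Coprime.mul_left (coprime_pow_add_one hp.out hpq (by omega)) (coprime_prod hp.out hpq (by omega) _)
  have hXe := dvd_eight hp.out hXc hy h1 h3
  rw [if_neg hp2] at hXe
  -- the product
  have hprod : G * ((q ^ 2 - 1) * (2 * (q - 1) * (q ^ (m - 1) + 1))) ∣
      (q ^ m + 1) * ∏ i ∈ Finset.range (m - 1), (q ^ (2 * (i + 1)) - 1) := by
    obtain ⟨r, rfl⟩ : ∃ r, m = r + 3 := ⟨m - 3, by omega⟩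
    have e1 : r + 3 - 1 = (r + 1) + 1 := by omega
    rw [e1, Finset.prod_range_succ, sq_sub q (r + 1 + 1)]
    have h5 : q ^ 2 - 1 ∣ ∏ i ∈ Finset.range (r + 1), (q ^ (2 * (i + 1)) - 1) := by
      have := Finset.dvd_prod_of_mem (fun i => q ^ (2 * (i + 1)) - 1) (s := Finset.range (r + 1)) (a := 0)
        (Finset.mem_range.2 (by omega))
      simpa using this
    have h7 : G * (2 * (q - 1)) = (q ^ (r + 3) + 1) * (q ^ (r + 1 + 1) - 1) := hG
    have h6 : G * ((q ^ 2 - 1) * (2 * (q - 1) * (q ^ (r + 1 + 1) + 1))) =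
        (q ^ (r + 3) + 1) * ((q ^ 2 - 1) * ((q ^ (r + 1 + 1) - 1) * (q ^ (r + 1 + 1) + 1))) := by
      calc G * ((q ^ 2 - 1) * (2 * (q - 1) * (q ^ (r + 1 + 1) + 1)))
          = (G * (2 * (q - 1))) * ((q ^ 2 - 1) * (q ^ (r + 1 + 1) + 1)) := by ring
        _ = _ := by rw [h7]; ring
    rw [h6]
    exact Nat.mul_dvd_mul_left _ (Nat.mul_dvd_mul_right h5 _)
  have hG0 : 0 < G := by
    rcases Nat.eq_zero_or_pos G with h | h
    · rw [h, zero_mul] at hG
      have : 1 < q ^ (m - 1) := Nat.one_lt_pow (by omega) (by omega)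
      have h8 : 0 < (q ^ m + 1) * (q ^ (m - 1) - 1) := Nat.mul_pos (by omega) (by omega)
      omega
    · exact h
  have hoG : o < G := odd_lt hq3 hm hG ho2
  have hlt : 8 * (o * q) < (q ^ 2 - 1) * (2 * (q - 1) * (q ^ (m - 1) + 1)) := odd_size hq3 hm ho2
  have ht8 : 8 ∣ (q ^ 2 - 1) * (2 * (q - 1) * (q ^ (m - 1) + 1)) := Dvd.dvd.mul_right (eight_dvd hqo) _
  obtain ⟨h5, h6⟩ := fin hXe hprod ht8 hlt (Ch.pos he) hG0 (by norm_num)
  refine ⟨A, e, G, hAd, Ch.hasDeg he, ⟨q, by rw [hAG, pow_one, mul_comm]⟩, h5, by rw [← hod]; exact hoG,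
    by rw [← hod, hAG, pow_one]; exact h6, ?_⟩
  have h7 : ((q ^ m + 1) * (q ^ (m - 1) - 1)).Coprime p :=
    Nat.Coprime.mul_left (coprime_pow_add_one hp.out hpq (by omega)) (coprime_pow_sub_one hp.out hpq (by omega) (by omega))
  exact Nat.Coprime.coprime_dvd_left (Dvd.intro _ hG) h7

end fam

/-! ### the rows -/

section rows

variable {p : ℕ} [hp : Fact p.Prime] {S : Type u} [Group S] [Finite S] [IsSimpleGroup S]

theorem not_comm_congr {S : Type*} {S' : Type*} [Group S] [Group S'] (e : S ≃* S') (h : ¬ IsMulCommutative S) :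
    ¬ IsMulCommutative S' := fun h' => h ⟨⟨fun a b => e.injective (by rw [map_mul, map_mul]; exact h'.is_comm.comm _ _)⟩⟩

/-- **`PΩ⁺`, own characteristic** -/
theorem kill_plus (hna : ¬ IsMulCommutative S) (hS : SizeOK S) (h : IsPOmegaPlusChar p S) : Kill p S := by
  have hL : IsLieTypeChar p S := Or.inr (Or.inr (Or.inr (Or.inr (Or.inl h))))
  obtain ⟨F, _, _, hch, m, hm, ⟨e⟩⟩ := h
  obtain ⟨n, -, hn⟩ := FiniteField.card F p
  have hs : IsSimpleGroup (POmega F (quadFormPlus m F)) := e.symm.isSimpleGroup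
  exact Two.kill hna hS hL ((two_plus n.pos hn hm hs (not_comm_congr e hna)).congr e)

/-- **`PΩ⁻`, own characteristic** -/
theorem kill_minus (hna : ¬ IsMulCommutative S) (hS : SizeOK S) (h : IsPOmegaMinusChar p S) : Kill p S := by
  have hL : IsLieTypeChar p S := Or.inr (Or.inr (Or.inr (Or.inr (Or.inr (Or.inl h)))))
  obtain ⟨F, _, _, hch, m, a, b, hm, hab, ⟨e⟩⟩ := h
  obtain ⟨n, -, hn⟩ := FiniteField.card F p
  have hs : IsSimpleGroup (POmega F (quadFormMinus (m - 1) F a b)) := e.symm.isSimpleGroup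
  exact Two.kill hna hS hL ((two_minus n.pos hn hm a b hab hs (not_comm_congr e hna)).congr e)

/-- **`PΩ` of odd dimension, own characteristic** -/
theorem kill_odd (hna : ¬ IsMulCommutative S) (hS : SizeOK S) (h : IsPOmegaOddChar p S) : Kill p S := by
  have hL : IsLieTypeChar p S := Or.inr (Or.inr (Or.inr (Or.inl h)))
  obtain ⟨F, _, _, hch, m, hm, hodd, ⟨e⟩⟩ := h
  obtain ⟨n, -, hn⟩ := FiniteField.card F p
  have hs : IsSimpleGroup (POmega F (quadFormOdd m F)) := e.symm.isSimpleGroup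
  exact Two.kill hna hS hL ((two_odd n.pos hn hodd hm hs (not_comm_congr e hna)).congr e)

end rows

end Cfsg.Agent.H725.BD
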